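import Cfsg.Agent.Lib.Big.Defs
import Cfsg.Agent.Lib.SF2.Final

/-!
The solvable signalizer functor theorem.
-/

namespace Cfsg.Lib.Big

open Subgroup Cfsg.Lib Cfsg.Lib.FT

variable {G : Type*} [Group G] [Finite G]

/-- **Solvable signalizer functor theorem** -/
theorem solvable_sft {p : ℕ} [Fact p.Prime] {A : Subgroup G} (hA : IsElementaryAbelian p A)
    (hA3 : p ^ 3 ≤ Nat.card A) {θ : G → Subgroup G} (hθ : IsSolvableSignalizerFunctor p A θ) :
    ∃ X : Subgroup G, Group.IsSolvable X ∧ A ≤ normalizer (X : Set G) ∧ ¬ p ∣ Nat.card X ∧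
      ∀ a ∈ A, a ≠ 1 → X ⊓ centralizer {a} = θ a := by
  have h := sigClosure_mem_all hA hA3 hθ
  exact ⟨_, sigFam_solv h, sigFam_norm h, sigFam_not_dvd h,
    fun a ha h1 => le_antisymm (sigFam_le h ha h1) (le_inf (le_sigClosure ha h1) (hθ.1.1 a ha h1))⟩

end Cfsg.Lib.Big
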